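import Mathlib

/-!
# Automorphisms of odd order of doubly transitive permutation groups

Let `G` be a doubly transitive permutation group on `Ω` (`n = |Ω| ≥ 2`), `α` an automorphism of
`G` of odd order `m`, and suppose `α (G_o)` has an orbit of length `k` coprime to `n`.
Then `k = 1` or `k = n - 1`.

Proof: let `A` be the `0/1`-matrix of the orbit of `(ω, o)` under `g ↦ (α g, g)`.  A matrix `M`
is *of type `β`* if `M (β g a) (g b) = M a b`; products of matrices of types `β`, `γ` have type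
`β * γ`, transposes have type `β⁻¹`, and matrices of type `1` are `x I + y J` by double
transitivity.  So `A Aᵀ = d I + l J` and `A ^ m = x I + y J`; comparing row sums and
`A ^ m (A ^ m)ᵀ` gives `x ^ 2 = d ^ m`, `k ^ m = x + n y`, `d (n - 1) = k (n - k)`, and a short
number-theoretic argument finishes.
-/

set_option autoImplicit false
set_option linter.unusedSectionVars false

namespace Cfsg.Agent.Lib.Helper62.TwoTransAut

open Matrix

section Mat

variable {Ω : Type*} [Fintype Ω] [DecidableEq Ω]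

/-- The all-ones matrix. -/
def jmat (Ω : Type*) [Fintype Ω] : Matrix Ω Ω ℤ := Matrix.of fun _ _ => (1 : ℤ)

theorem jmat_apply (a b : Ω) : jmat Ω a b = 1 := rfl

theorem jmat_transpose : (jmat Ω)ᵀ = jmat Ω := by
  ext a b; rfl

/-- `M` is invariant of type `β`: `M (β g a) (g b) = M a b`. -/
def TypeInv (G : Subgroup (Equiv.Perm Ω)) (β : MulAut G) (M : Matrix Ω Ω ℤ) : Prop :=
  ∀ (g : G) (a b : Ω), M ((β g : Equiv.Perm Ω) a) ((g : Equiv.Perm Ω) b) = M a b

theorem TypeInv.mul {G : Subgroup (Equiv.Perm Ω)} {β γ : MulAut G} {M N : Matrix Ω Ω ℤ}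
    (hM : TypeInv G β M) (hN : TypeInv G γ N) : TypeInv G (β * γ) (M * N) := by
  intro g a c
  simp only [Matrix.mul_apply, MulAut.mul_apply]
  calc ∑ b, M ((β (γ g) : Equiv.Perm Ω) a) b * N b ((g : Equiv.Perm Ω) c)
      = ∑ b, M ((β (γ g) : Equiv.Perm Ω) a) ((γ g : Equiv.Perm Ω) b) *
          N ((γ g : Equiv.Perm Ω) b) ((g : Equiv.Perm Ω) c) :=
        (Equiv.sum_comp (γ g : Equiv.Perm Ω)
          (fun b => M ((β (γ g) : Equiv.Perm Ω) a) b * N b ((g : Equiv.Perm Ω) c))).symm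
    _ = ∑ b, M a b * N b c :=
        Finset.sum_congr rfl fun b _ => by rw [hM (γ g) a b, hN g b c]

theorem TypeInv.transpose {G : Subgroup (Equiv.Perm Ω)} {β : MulAut G} {M : Matrix Ω Ω ℤ}
    (hM : TypeInv G β M) : TypeInv G β⁻¹ Mᵀ := by
  intro g b a
  simp only [Matrix.transpose_apply]
  have h := hM (β⁻¹ g) a b
  rw [MulAut.apply_inv_self] at h
  exact h

theorem TypeInv.pow {G : Subgroup (Equiv.Perm Ω)} {β : MulAut G} {M : Matrix Ω Ω ℤ}
    (hM : TypeInv G β M) (j : ℕ) : TypeInv G (β ^ j) (M ^ j) := by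
  induction j with
  | zero =>
    intro g a b
    simp only [pow_zero, MulAut.one_apply, Matrix.one_apply]
    simp
  | succ j ih =>
    rw [pow_succ, pow_succ]
    exact ih.mul hM

/-- Matrices of type `1` for a doubly transitive group are `x I + y J`. -/
theorem TypeInv.one_eq {G : Subgroup (Equiv.Perm Ω)} (h2 : MulAction.IsMultiplyPretransitive G Ω 2)
    {M : Matrix Ω Ω ℤ} (hM : TypeInv G 1 M) (a₀ b₀ : Ω) (hab : a₀ ≠ b₀) :
    M = (M a₀ a₀ - M a₀ b₀) • (1 : Matrix Ω Ω ℤ) + (M a₀ b₀) • jmat Ω := by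
  have h2' : ∀ {a b c d : Ω}, a ≠ b → c ≠ d → ∃ g : G, g • a = c ∧ g • b = d :=
    MulAction.is_two_pretransitive_iff.mp h2
  have htr : MulAction.IsPretransitive G Ω := MulAction.isPretransitive_of_is_two_pretransitive
  ext a b
  simp only [Matrix.add_apply, Matrix.smul_apply, Matrix.one_apply, jmat_apply, smul_eq_mul]
  by_cases h : a = b
  · subst h
    obtain ⟨g, hg⟩ := MulAction.exists_smul_eq G a₀ a
    have h1 := hM g a₀ a₀
    have hg' : (g : Equiv.Perm Ω) a₀ = a := hg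
    simp only [MulAut.one_apply, hg'] at h1
    simp [h1]
  · obtain ⟨g, hg1, hg2⟩ := h2' hab h
    have h1 := hM g a₀ b₀
    have hg1' : (g : Equiv.Perm Ω) a₀ = a := hg1
    have hg2' : (g : Equiv.Perm Ω) b₀ = b := hg2
    simp only [MulAut.one_apply, hg1', hg2'] at h1
    simp [h1, h]

theorem TypeInv.colsum_const {G : Subgroup (Equiv.Perm Ω)} [MulAction.IsPretransitive G Ω]
    {β : MulAut G} {M : Matrix Ω Ω ℤ} (hM : TypeInv G β M) (b b' : Ω) :
    ∑ a, M a b' = ∑ a, M a b := by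
  obtain ⟨g, hg⟩ := MulAction.exists_smul_eq G b b'
  have hg' : (g : Equiv.Perm Ω) b = b' := hg
  calc ∑ a, M a b' = ∑ a, M ((β g : Equiv.Perm Ω) a) b' :=
        (Equiv.sum_comp (β g : Equiv.Perm Ω) (fun a => M a b')).symm
    _ = ∑ a, M a b := Finset.sum_congr rfl fun a _ => by rw [← hg', hM g a b]

theorem TypeInv.rowsum_const {G : Subgroup (Equiv.Perm Ω)} [MulAction.IsPretransitive G Ω]
    {β : MulAut G} {M : Matrix Ω Ω ℤ} (hM : TypeInv G β M) (a a' : Ω) :
    ∑ b, M a' b = ∑ b, M a b := by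
  obtain ⟨h, hh⟩ := MulAction.exists_smul_eq G a a'
  have hh' : ((β (β⁻¹ h) : G) : Equiv.Perm Ω) a = a' := by
    rw [MulAut.apply_inv_self]; exact hh
  calc ∑ b, M a' b = ∑ b, M a' (((β⁻¹ h : G) : Equiv.Perm Ω) b) :=
        (Equiv.sum_comp ((β⁻¹ h : G) : Equiv.Perm Ω) (fun b => M a' b)).symm
    _ = ∑ b, M a b := Finset.sum_congr rfl fun b _ => by rw [← hh', hM (β⁻¹ h) a b]

theorem mul_jmat {M : Matrix Ω Ω ℤ} {r : ℤ} (h : ∀ a, ∑ b, M a b = r) : M * jmat Ω = r • jmat Ω := by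
  ext a b
  simp [Matrix.mul_apply, jmat_apply, h a]

theorem jmat_mul {M : Matrix Ω Ω ℤ} {r : ℤ} (h : ∀ b, ∑ a, M a b = r) : jmat Ω * M = r • jmat Ω := by
  ext a b
  simp [Matrix.mul_apply, jmat_apply, h b]

theorem jmat_mul_jmat : jmat Ω * jmat Ω = (Fintype.card Ω : ℤ) • jmat Ω := by
  ext a b
  simp [Matrix.mul_apply, jmat_apply]

/-- Comparing coefficients of `x I + y J`. -/
theorem coeff_eq {x y x' y' : ℤ} (a₀ b₀ : Ω) (hab : a₀ ≠ b₀)
    (h : x • (1 : Matrix Ω Ω ℤ) + y • jmat Ω = x' • (1 : Matrix Ω Ω ℤ) + y' • jmat Ω) :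
    x = x' ∧ y = y' := by
  have h1 := congrFun (congrFun h a₀) b₀
  have h2 := congrFun (congrFun h a₀) a₀
  simp only [Matrix.add_apply, Matrix.smul_apply, Matrix.one_apply, jmat_apply, smul_eq_mul,
    if_neg hab, mul_zero, mul_one, zero_add, if_true] at h1 h2
  exact ⟨by linarith, h1⟩

/-- The algebraic core. -/
theorem core_alg {A : Matrix Ω Ω ℤ} {k d l x y : ℤ} {m : ℕ} (a₀ b₀ : Ω) (hab : a₀ ≠ b₀)
    (hAJ : A * jmat Ω = k • jmat Ω) (hJA : jmat Ω * A = k • jmat Ω)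
    (hAAt : A * Aᵀ = d • (1 : Matrix Ω Ω ℤ) + l • jmat Ω)
    (hpow : A ^ m = x • (1 : Matrix Ω Ω ℤ) + y • jmat Ω) :
    x ^ 2 = d ^ m ∧ k ^ m = x + (Fintype.card Ω : ℤ) * y ∧ d + (Fintype.card Ω : ℤ) * l = k ^ 2 := by
  have hJAt : jmat Ω * Aᵀ = k • jmat Ω := by
    have := congrArg Matrix.transpose hAJ
    rw [Matrix.transpose_mul, jmat_transpose, Matrix.transpose_smul, jmat_transpose] at this
    exact this
  have hAtJ : Aᵀ * jmat Ω = k • jmat Ω := by
    have := congrArg Matrix.transpose hJA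
    rw [Matrix.transpose_mul, jmat_transpose, Matrix.transpose_smul, jmat_transpose] at this
    exact this
  -- row sums of powers
  have hpowJ : ∀ j : ℕ, A ^ j * jmat Ω = (k ^ j) • jmat Ω := by
    intro j
    induction j with
    | zero => simp
    | succ j ih =>
      rw [pow_succ, Matrix.mul_assoc, hAJ, Matrix.mul_smul, ih, smul_smul, pow_succ, mul_comm]
  -- A^j (A^j)ᵀ
  have hpowT : ∀ j : ℕ, ∃ c : ℤ, A ^ j * (A ^ j)ᵀ = (d ^ j) • (1 : Matrix Ω Ω ℤ) + c • jmat Ω := by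
    intro j
    induction j with
    | zero => exact ⟨0, by simp⟩
    | succ j ih =>
      obtain ⟨c, hc⟩ := ih
      refine ⟨d ^ j * l + c * k * k, ?_⟩
      have e1 : A ^ (j + 1) * (A ^ (j + 1))ᵀ = A * (A ^ j * (A ^ j)ᵀ) * Aᵀ := by
        rw [pow_succ', Matrix.transpose_mul]
        simp only [Matrix.mul_assoc]
      rw [e1, hc, Matrix.mul_add, Matrix.add_mul, Matrix.mul_smul, Matrix.mul_one, Matrix.smul_mul,
        hAAt, Matrix.mul_smul, Matrix.smul_mul, hAJ, Matrix.smul_mul, hJAt]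
      simp only [smul_add, smul_smul, pow_succ]
      module
  obtain ⟨c, hc⟩ := hpowT m
  have hsq : A ^ m * (A ^ m)ᵀ =
      (x ^ 2) • (1 : Matrix Ω Ω ℤ) + (2 * x * y + (Fintype.card Ω : ℤ) * y ^ 2) • jmat Ω := by
    rw [hpow, Matrix.transpose_add, Matrix.transpose_smul, Matrix.transpose_smul,
      Matrix.transpose_one, jmat_transpose]
    simp only [Matrix.mul_add, Matrix.add_mul, Matrix.mul_smul, Matrix.smul_mul, Matrix.mul_one,
      Matrix.one_mul, jmat_mul_jmat, smul_add, smul_smul]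
    module
  have h1 := coeff_eq a₀ b₀ hab (hc.symm.trans hsq)
  have hrow : (k ^ m) • jmat Ω = (x + (Fintype.card Ω : ℤ) * y) • jmat Ω := by
    rw [← hpowJ m, hpow, Matrix.add_mul, Matrix.smul_mul, Matrix.one_mul, Matrix.smul_mul,
      jmat_mul_jmat, smul_smul]
    module
  have h2 := congrFun (congrFun hrow a₀) b₀
  simp only [Matrix.smul_apply, jmat_apply, smul_eq_mul, mul_one] at h2
  have hAAtJ : (k ^ 2) • jmat Ω = (d + (Fintype.card Ω : ℤ) * l) • jmat Ω := by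
    have e : A * Aᵀ * jmat Ω = (k ^ 2) • jmat Ω := by
      rw [Matrix.mul_assoc, hAtJ, Matrix.mul_smul, hAJ, smul_smul, sq]
    rw [← e, hAAt, Matrix.add_mul, Matrix.smul_mul, Matrix.one_mul, Matrix.smul_mul,
      jmat_mul_jmat, smul_smul]
    module
  have h3 := congrFun (congrFun hAAtJ a₀) b₀
  simp only [Matrix.smul_apply, jmat_apply, smul_eq_mul, mul_one] at h3
  exact ⟨h1.1.symm, h2, h3.symm⟩

end Mat

/-- The number-theoretic core. -/
theorem nt_core (n k : ℕ) (hn : 2 ≤ n) (hk0 : 0 < k) (hkn : k < n) (hcop : Nat.Coprime k n)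
    (d l x y : ℤ) (m : ℕ) (hm : Odd m)
    (h1 : d + l = k) (h2 : d + (n : ℤ) * l = (k : ℤ) ^ 2) (h3 : x ^ 2 = d ^ m)
    (h4 : (k : ℤ) ^ m = x + (n : ℤ) * y) :
    k = 1 ∨ k = n - 1 := by
  obtain ⟨t, rfl⟩ := hm
  have hnZ : (2 : ℤ) ≤ n := by exact_mod_cast hn
  have hk0Z : (0 : ℤ) < k := by exact_mod_cast hk0
  have hknZ : (k : ℤ) < n := by exact_mod_cast hkn
  have hd : d * ((n : ℤ) - 1) = k * ((n : ℤ) - k) := by linear_combination (n : ℤ) * h1 - h2
  have hdpos : 0 < d := by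
    by_contra hneg
    have hneg' : d ≤ 0 := not_lt.mp hneg
    have hpos : (0 : ℤ) < k * ((n : ℤ) - k) := mul_pos hk0Z (by linarith)
    nlinarith
  have hx : x ^ 2 = (d ^ t) ^ 2 * d := by rw [h3]; ring
  have hdvd : d ^ t ∣ x := by
    have h : (d ^ t) ^ 2 ∣ x ^ 2 := ⟨d, hx⟩
    exact (Int.pow_dvd_pow_iff (by norm_num : (2 : ℕ) ≠ 0)).mp h
  obtain ⟨s₀, hs₀⟩ := hdvd
  have hdt : d ^ t ≠ 0 := pow_ne_zero _ hdpos.ne'
  have hs : s₀ ^ 2 = d := by
    have h : (d ^ t) ^ 2 * s₀ ^ 2 = (d ^ t) ^ 2 * d := by rw [← hx, hs₀]; ring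
    exact mul_left_cancel₀ (pow_ne_zero 2 hdt) h
  have hmod : (n : ℤ) ∣ (k : ℤ) ^ 2 - d := ⟨(k : ℤ) - d, by linear_combination hd⟩
  have h5 : (n : ℤ) ∣ ((k : ℤ) ^ 2) ^ t - d ^ t := hmod.trans (sub_dvd_pow_sub_pow _ _ t)
  have hkey : (n : ℤ) ∣ (k : ℤ) ^ (2 * t) * ((k : ℤ) - s₀) := by
    have e : (k : ℤ) ^ (2 * t) * ((k : ℤ) - s₀) = (n : ℤ) * y - (((k : ℤ) ^ 2) ^ t - d ^ t) * s₀ := by
      rw [← pow_mul]
      linear_combination h4 + hs₀
    rw [e]
    exact dvd_sub (dvd_mul_right _ _) (h5.mul_right s₀)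
  have hcop' : IsCoprime (n : ℤ) ((k : ℤ) ^ (2 * t)) :=
    (Nat.isCoprime_iff_coprime.mpr hcop).symm.pow_right
  have hdiv : (n : ℤ) ∣ (k : ℤ) - s₀ := hcop'.dvd_of_dvd_mul_left hkey
  have hn1 : (0 : ℤ) < (n : ℤ) - 1 := by linarith
  have hs2k : s₀ ^ 2 ≤ k := by
    rw [hs]
    have h : d * ((n : ℤ) - 1) ≤ k * ((n : ℤ) - 1) := by
      rw [hd]; exact mul_le_mul_of_nonneg_left (by linarith) hk0Z.le
    exact le_of_mul_le_mul_right h hn1
  have hs2n : s₀ ^ 2 ≤ (n : ℤ) - k := by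
    rw [hs]
    have h : d * ((n : ℤ) - 1) ≤ ((n : ℤ) - k) * ((n : ℤ) - 1) := by
      rw [hd, mul_comm]; exact mul_le_mul_of_nonneg_left (by linarith) (by linarith)
    exact le_of_mul_le_mul_right h hn1
  have hs0 : s₀ ≠ 0 := by
    rintro rfl
    rw [← hs] at hdpos
    simp at hdpos
  rcases lt_or_gt_of_ne hs0 with hneg | hpos
  · -- s₀ < 0
    right
    have hu : 1 ≤ -s₀ := by linarith
    have hu2 : -s₀ ≤ s₀ ^ 2 := by nlinarith
    have hle : (n : ℤ) ≤ (k : ℤ) - s₀ := Int.le_of_dvd (by linarith) hdiv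
    have heq : -s₀ = (n : ℤ) - k := by linarith
    have hs1 : -s₀ = 1 := by nlinarith
    have : (k : ℤ) = (n : ℤ) - 1 := by linarith
    omega
  · -- s₀ > 0
    left
    have hu2 : s₀ ≤ s₀ ^ 2 := by nlinarith
    have hz : (k : ℤ) - s₀ = 0 :=
      Int.eq_zero_of_dvd_of_nonneg_of_lt (by linarith) (by linarith) hdiv
    have hs1 : s₀ = 1 := by nlinarith
    have : (k : ℤ) = 1 := by linarith
    exact_mod_cast this

section Orbit

open Classical in
/-- Indicator matrix of the orbit of `(ω, o)` under `g ↦ (α g, g)`. -/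
noncomputable def orbMat {Ω : Type*} (G : Subgroup (Equiv.Perm Ω)) (α : MulAut G) (ω o : Ω) :
    Matrix Ω Ω ℤ :=
  Matrix.of fun a b =>
    if ∃ g : G, (α g : Equiv.Perm Ω) ω = a ∧ (g : Equiv.Perm Ω) o = b then 1 else 0

variable {Ω : Type*} [Fintype Ω] [DecidableEq Ω]

theorem orbMat_typeInv (G : Subgroup (Equiv.Perm Ω)) (α : MulAut G) (ω o : Ω) :
    TypeInv G α (orbMat G α ω o) := by
  intro g a b
  simp only [orbMat, Matrix.of_apply]
  have hiff : (∃ h : G, (α h : Equiv.Perm Ω) ω = (α g : Equiv.Perm Ω) a ∧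
        (h : Equiv.Perm Ω) o = (g : Equiv.Perm Ω) b) ↔
      (∃ h : G, (α h : Equiv.Perm Ω) ω = a ∧ (h : Equiv.Perm Ω) o = b) := by
    constructor
    · rintro ⟨h, h1, h2⟩
      refine ⟨g⁻¹ * h, ?_, ?_⟩
      · rw [map_mul, map_inv]
        simp [h1]
      · simp [h2]
    · rintro ⟨h, h1, h2⟩
      refine ⟨g * h, ?_, ?_⟩
      · rw [map_mul]
        simp [h1]
      · simp [h2]
  by_cases hc : ∃ h : G, (α h : Equiv.Perm Ω) ω = (α g : Equiv.Perm Ω) a ∧
      (h : Equiv.Perm Ω) o = (g : Equiv.Perm Ω) b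
  · rw [if_pos hc, if_pos (hiff.mp hc)]
  · rw [if_neg hc, if_neg (fun h => hc (hiff.mpr h))]

theorem orbMat_sq (G : Subgroup (Equiv.Perm Ω)) (α : MulAut G) (ω o a b : Ω) :
    orbMat G α ω o a b * orbMat G α ω o a b = orbMat G α ω o a b := by
  simp only [orbMat, Matrix.of_apply]
  split_ifs <;> simp

theorem mem_orbit_map_iff (G : Subgroup (Equiv.Perm Ω)) (α : MulAut G) (ω o a : Ω) :
    a ∈ MulAction.orbit ((MulAction.stabilizer G o).map α.toMonoidHom) ω ↔
      ∃ g : G, (α g : Equiv.Perm Ω) ω = a ∧ (g : Equiv.Perm Ω) o = o := by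
  constructor
  · rintro ⟨⟨x, g, hg, rfl⟩, hx⟩
    exact ⟨g, hx, hg⟩
  · rintro ⟨g, h1, h2⟩
    exact ⟨⟨α g, g, h2, rfl⟩, h1⟩

theorem orbMat_col_o (G : Subgroup (Equiv.Perm Ω)) (α : MulAut G) (ω o : Ω) :
    ∑ a, orbMat G α ω o a o =
      (Nat.card (MulAction.orbit ((MulAction.stabilizer G o).map α.toMonoidHom) ω) : ℤ) := by
  classical
  have h1 : ∑ a, orbMat G α ω o a o =
      ∑ a, (if a ∈ MulAction.orbit ((MulAction.stabilizer G o).map α.toMonoidHom) ω
        then (1 : ℤ) else 0) :=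
    Finset.sum_congr rfl fun a _ => by
      simp only [orbMat, Matrix.of_apply]
      by_cases hc : ∃ g : G, (α g : Equiv.Perm Ω) ω = a ∧ (g : Equiv.Perm Ω) o = o
      · rw [if_pos hc, if_pos ((mem_orbit_map_iff G α ω o a).mpr hc)]
      · rw [if_neg hc, if_neg (fun h => hc ((mem_orbit_map_iff G α ω o a).mp h))]
  rw [h1, Finset.sum_boole, Nat.card_eq_card_toFinset]
  have h2 : (Finset.univ.filter fun a =>
      a ∈ MulAction.orbit ((MulAction.stabilizer G o).map α.toMonoidHom) ω) =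
      (MulAction.orbit ((MulAction.stabilizer G o).map α.toMonoidHom) ω).toFinset := by
    ext a
    simp only [Finset.mem_filter, Finset.mem_univ, true_and, Set.mem_toFinset]
  rw [h2]

/-- The main counting statement: the orbit length is `1` or `n - 1`. -/
theorem orbit_card_eq (G : Subgroup (Equiv.Perm Ω))
    (h2 : MulAction.IsMultiplyPretransitive G Ω 2) (o : Ω) (α : MulAut G) (hα : Odd (orderOf α))
    (ω : Ω)
    (hk : (Nat.card (MulAction.orbit ((MulAction.stabilizer G o).map α.toMonoidHom) ω)).Coprime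
      (Fintype.card Ω))
    (hcard : 2 ≤ Fintype.card Ω) :
    Nat.card (MulAction.orbit ((MulAction.stabilizer G o).map α.toMonoidHom) ω) = 1 ∨
      Nat.card (MulAction.orbit ((MulAction.stabilizer G o).map α.toMonoidHom) ω) =
        Fintype.card Ω - 1 := by
  classical
  set k := Nat.card (MulAction.orbit ((MulAction.stabilizer G o).map α.toMonoidHom) ω) with hkdef
  have htr : MulAction.IsPretransitive G Ω := MulAction.isPretransitive_of_is_two_pretransitive
  -- two distinct points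
  obtain ⟨a₀, b₀, hab⟩ : ∃ a₀ b₀ : Ω, a₀ ≠ b₀ := by
    have : 1 < Fintype.card Ω := hcard
    exact Fintype.exists_pair_of_one_lt_card this
  have hk0 : 0 < k := by
    have : Nonempty (MulAction.orbit ((MulAction.stabilizer G o).map α.toMonoidHom) ω) :=
      ⟨⟨ω, MulAction.mem_orbit_self ω⟩⟩
    exact Nat.card_pos
  have hkle : k ≤ Fintype.card Ω := by
    rw [hkdef, ← Nat.card_eq_fintype_card]
    exact Nat.card_le_card_of_injective Subtype.val Subtype.val_injective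
  have hkn : k < Fintype.card Ω := by
    rcases lt_or_eq_of_le hkle with h | h
    · exact h
    · exfalso
      rw [h, Nat.Coprime, Nat.gcd_self] at hk
      omega
  set A := orbMat G α ω o with hAdef
  have hA : TypeInv G α A := orbMat_typeInv G α ω o
  have hcol : ∀ b, ∑ a, A a b = (k : ℤ) := fun b =>
    (hA.colsum_const o b).trans (orbMat_col_o G α ω o)
  have hrow : ∀ a, ∑ b, A a b = (k : ℤ) := by
    intro a
    have hconst : ∀ a', ∑ b, A a' b = ∑ b, A a b := fun a' => hA.rowsum_const a a'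
    have htot : ∑ a', ∑ b, A a' b = (Fintype.card Ω : ℤ) * (k : ℤ) := by
      calc ∑ a', ∑ b, A a' b = ∑ b, ∑ a', A a' b := Finset.sum_comm
        _ = ∑ _b : Ω, (k : ℤ) := Finset.sum_congr rfl fun b _ => hcol b
        _ = (Fintype.card Ω : ℤ) * (k : ℤ) := by simp
    have htot' : ∑ a', ∑ b, A a' b = (Fintype.card Ω : ℤ) * ∑ b, A a b := by
      calc ∑ a', ∑ b, A a' b = ∑ _a' : Ω, ∑ b, A a b :=
            Finset.sum_congr rfl fun a' _ => hconst a'
        _ = (Fintype.card Ω : ℤ) * ∑ b, A a b := by simp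
    have hn0 : (Fintype.card Ω : ℤ) ≠ 0 := by
      have : 0 < Fintype.card Ω := by omega
      exact_mod_cast this.ne'
    exact mul_left_cancel₀ hn0 (htot'.symm.trans htot)
  have hAJ : A * jmat Ω = (k : ℤ) • jmat Ω := mul_jmat hrow
  have hJA : jmat Ω * A = (k : ℤ) • jmat Ω := jmat_mul hcol
  -- A Aᵀ
  have hT1 : TypeInv G 1 (A * Aᵀ) := by
    have h := hA.mul hA.transpose
    rwa [mul_inv_cancel] at h
  have hAAt := hT1.one_eq h2 a₀ b₀ hab
  set d := (A * Aᵀ) a₀ a₀ - (A * Aᵀ) a₀ b₀ with hd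
  set l := (A * Aᵀ) a₀ b₀ with hl
  have hdl : d + l = (k : ℤ) := by
    have : (A * Aᵀ) a₀ a₀ = (k : ℤ) := by
      rw [Matrix.mul_apply, ← hrow a₀]
      refine Finset.sum_congr rfl fun b _ => ?_
      rw [Matrix.transpose_apply]
      exact orbMat_sq G α ω o a₀ b
    rw [hd, hl]
    linarith
  -- A ^ m
  have hTm : TypeInv G 1 (A ^ orderOf α) := by
    have h := hA.pow (orderOf α)
    rwa [pow_orderOf_eq_one] at h
  have hpow := hTm.one_eq h2 a₀ b₀ hab
  obtain ⟨e1, e2, e3⟩ := core_alg a₀ b₀ hab hAJ hJA hAAt hpow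
  exact nt_core (Fintype.card Ω) k hcard hk0 hkn hk d l _ _ (orderOf α) hα hdl e3 e1 e2

end Orbit

end Cfsg.Agent.Lib.Helper62.TwoTransAut
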